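import Mathlib
import Cfsg.Prelude.Def_MonsterType
import Cfsg.Agent.Lib.Cores

/-!
Elementary facts on large extraspecial subgroups.
-/

set_option autoImplicit false
set_option linter.style.haveILetI false

namespace Cfsg.Agent.Lib.LargeEx

open Cfsg Cfsg.Agent.Lib.Cores Subgroup

variable {G : Type*} [Group G] [Finite G]

theorem eq_one_of_odd_two {K P : Subgroup G} (hK : Odd (Nat.card K)) (hP : IsPGroup 2 P) {x : G}
    (hx : x ∈ K) (hx' : x ∈ P) : x = 1 := by
  obtain ⟨k, hk⟩ := hP ⟨x, hx'⟩
  have hk' : x ^ 2 ^ k = 1 := congrArg Subtype.val hk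
  have h1 := orderOf_dvd_of_pow_eq_one hk'
  have h2 : orderOf x ∣ Nat.card K := Subgroup.orderOf_dvd_natCard K hx
  have h3 : Nat.Coprime (2 ^ k) (Nat.card K) := by
    apply Nat.Coprime.pow_left
    exact (Nat.coprime_two_left).2 hK
  have h4 : orderOf x ∣ 1 := by
    have := Nat.dvd_gcd h1 h2
    rwa [h3] at this
  rwa [Nat.dvd_one, orderOf_eq_one_iff] at h4

/-- an odd order subgroup and a 2-subgroup normalizing each other commute -/
theorem commute_of_normalizes {K P : Subgroup G} (hK : Odd (Nat.card K)) (hP : IsPGroup 2 P)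
    (h1 : ∀ k ∈ K, ∀ p ∈ P, k * p * k⁻¹ ∈ P) (h2 : ∀ p ∈ P, ∀ k ∈ K, p * k * p⁻¹ ∈ K) {k p : G}
    (hk : k ∈ K) (hp : p ∈ P) : Commute k p := by
  have h3 : k * p * k⁻¹ * p⁻¹ ∈ P := P.mul_mem (h1 k hk p hp) (P.inv_mem hp)
  have h4 : k * p * k⁻¹ * p⁻¹ ∈ K := by
    have e : k * p * k⁻¹ * p⁻¹ = k * (p * k⁻¹ * p⁻¹) := by group
    rw [e]; exact K.mul_mem hk (h2 p hp _ (K.inv_mem hk))
  have h5 := eq_one_of_odd_two hK hP h4 h3
  change k * p = p * k
  calc k * p = (k * p * k⁻¹ * p⁻¹) * (p * k) := by group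
    _ = p * k := by rw [h5, one_mul]

section ex
variable {Q : Subgroup G} (hE : IsExtraspecial 2 Q)
include hE

omit [Finite G] in
theorem exists_z : ∃ z : G, z ∈ Q ∧ orderOf z = 2 ∧ (center Q).map Q.subtype = zpowers z ∧
    ∀ x : G, x ∈ (center Q).map Q.subtype ↔ x = 1 ∨ x = z := by
  have hc := hE.2
  haveI : Fact (Nat.Prime 2) := ⟨Nat.prime_two⟩
  have hfin : Finite (center Q) := Nat.finite_of_card_ne_zero (by rw [hc]; norm_num)
  obtain ⟨c, hcne⟩ : ∃ c : center Q, c ≠ 1 := by
    haveI : Nontrivial (center Q) := Finite.one_lt_card_iff_nontrivial.1 (by rw [hc]; norm_num)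
    exact exists_ne 1
  have hord : orderOf c = 2 := by
    have h1 : orderOf c ∣ 2 := by rw [← hc]; exact orderOf_dvd_natCard c
    have h2 : orderOf c ≠ 1 := fun h => hcne (orderOf_eq_one_iff.1 h)
    rcases (Nat.dvd_prime Nat.prime_two).1 h1 with h | h
    · exact absurd h h2
    · exact h
  have hord' : orderOf ((c : Q) : G) = 2 := by
    rw [Subgroup.orderOf_coe, Subgroup.orderOf_coe]; exact hord
  have hall : ∀ x : G, x ∈ (center Q).map Q.subtype ↔ x = 1 ∨ x = ((c : Q) : G) := by
    intro x
    constructor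
    · rintro ⟨y, hy, rfl⟩
      classical
      haveI : Fintype (center Q) := Fintype.ofFinite _
      by_contra hno
      push Not at hno
      have h1 : (⟨y, hy⟩ : center Q) ≠ 1 := fun h => hno.1 (by
        have := congrArg (fun t : center Q => ((t : Q) : G)) h; simpa using this)
      have h2 : (⟨y, hy⟩ : center Q) ≠ c := fun h => hno.2 (by
        have := congrArg (fun t : center Q => ((t : Q) : G)) h; simpa using this)
      have h3 : ({1, c, ⟨y, hy⟩} : Finset (center Q)).card ≤ Fintype.card (center Q) :=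
        Finset.card_le_univ _
      rw [← Nat.card_eq_fintype_card, hc,
        Finset.card_eq_three.2 ⟨1, c, ⟨y, hy⟩, hcne.symm, h1.symm, h2.symm, rfl⟩] at h3
      omega
    · rintro (rfl | rfl)
      · exact Subgroup.one_mem _
      · exact ⟨(c : Q), c.2, rfl⟩
  refine ⟨((c : Q) : G), (c : Q).2, hord', ?_, hall⟩
  ext x
  rw [hall]
  constructor
  · rintro (rfl | rfl)
    · exact Subgroup.one_mem _
    · exact mem_zpowers _
  · intro hx
    obtain ⟨k, rfl⟩ := mem_zpowers_iff.1 hx
    have h2 : ((c : Q) : G) ^ (2 : ℤ) = 1 := by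
      have := pow_orderOf_eq_one ((c : Q) : G)
      rw [hord'] at this; exact_mod_cast this
    rcases Int.even_or_odd k with ⟨j, hj⟩ | ⟨j, hj⟩
    · left; rw [hj, ← two_mul, zpow_mul, h2, one_zpow]
    · right; rw [hj, zpow_add, zpow_mul, h2, one_zpow, one_mul, zpow_one]

/-- an odd order subgroup normalized by `Q` and centralizing `Z` is trivial -/
theorem eq_bot_of_centralizes (hL2 : centralizer (Q : Set G) = ((center Q).map Q.subtype))
    (hL3 : centralizer (((center Q).map Q.subtype) : Set G) ≤ normalizer (Q : Set G))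
    {K : Subgroup G} (hK : Odd (Nat.card K)) (hQK : Q ≤ normalizer (K : Set G))
    (hz : ∀ k ∈ K, ∀ x ∈ (center Q).map Q.subtype, Commute k x) : K = ⊥ := by
  rw [eq_bot_iff]
  intro k hk
  rw [Subgroup.mem_bot]
  have hKZ : K ≤ centralizer (((center Q).map Q.subtype) : Set G) := by
    intro k hk
    rw [mem_centralizer_iff]
    intro x hx
    exact (hz k hk x hx).symm
  have hKQ := hKZ.trans hL3
  have h1 : k ∈ centralizer (Q : Set G) := by
    rw [mem_centralizer_iff]
    intro q hq
    exact (commute_of_normalizes hK hE.1.1 (fun k hk p hp =>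
      (mem_normalizer_iff.1 (hKQ hk) p).1 hp) (fun p hp k hk =>
      (mem_normalizer_iff.1 (hQK hp) k).1 hk) hk hq).symm
  rw [hL2] at h1
  obtain ⟨y, _, hyk⟩ := h1
  exact eq_one_of_odd_two hK hE.1.1 hk (hyk ▸ y.2)

end ex

omit [Finite G] in
theorem inv_aux1 {s b : G} (hs : s * s = 1) (hb : b * b = 1) : s * (s * b) * s = (s * b)⁻¹ := by
  rw [mul_inv_rev, inv_eq_of_mul_eq_one_right hs, inv_eq_of_mul_eq_one_right hb, ← mul_assoc, hs,
    one_mul]

omit [Finite G] in
theorem inv_aux2 {s b : G} (hs : s * s = 1) (hb : b * b = 1) : b * (s * b) * b = (s * b)⁻¹ := by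
  rw [mul_inv_rev, inv_eq_of_mul_eq_one_right hs, inv_eq_of_mul_eq_one_right hb, mul_assoc,
    mul_assoc, hb, mul_one]

/-- four-group lemma -/
theorem four_group {K : Subgroup G} (hK : Odd (Nat.card K)) {b z : G} (hb : b * b = 1)
    (hz : z * z = 1) (hbz : Commute b z) (hbK : ∀ k ∈ K, b * k * b ∈ K)
    (hzK : ∀ k ∈ K, z * k * z ∈ K)
    (h1 : ∀ k ∈ K, Commute k b → Commute k z) (h2 : ∀ k ∈ K, Commute k (b * z) → Commute k z) :
    ∀ k ∈ K, Commute k z := by
  have hodd : ∀ k ∈ K, k * k = 1 → k = 1 := by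
    intro k hk hkk
    have h3 : orderOf k ∣ 2 := orderOf_dvd_of_pow_eq_one (by rw [sq]; exact hkk)
    have h4 : orderOf k ∣ Nat.card K := Subgroup.orderOf_dvd_natCard K hk
    have h5 : orderOf k ∣ 1 := by
      have := Nat.dvd_gcd h3 h4
      rwa [(Nat.coprime_two_left).2 hK] at this
    rwa [Nat.dvd_one, orderOf_eq_one_iff] at h5
  have hbi : b⁻¹ = b := inv_eq_of_mul_eq_one_right hb
  have hzi : z⁻¹ = z := inv_eq_of_mul_eq_one_right hz
  have hbzz : (b * z) * (b * z) = 1 := by
    calc (b * z) * (b * z) = b * (z * b) * z := by group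
      _ = b * (b * z) * z := by rw [hbz.eq]
      _ = (b * b) * (z * z) := by group
      _ = 1 := by rw [hb, hz, one_mul]
  -- uniqueness of involutions in the coset `K z` commuting with `b` or `b z`
  have uniq : ∀ c : G, c * c = 1 → (∀ k ∈ K, Commute k c → Commute k z) → Commute c z →
      ∀ k ∈ K, (k * z) * (k * z) = 1 → Commute (k * z) c → k = 1 := by
    intro c hc hcz hcomm k hk hkk hkc
    have h3 : Commute k c := by
      have e : k = (k * z) * z⁻¹ := by group
      rw [e]; exact hkc.mul_left hcomm.symm.inv_left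
    have h4 := hcz k hk h3
    apply hodd k hk
    calc k * k = k * k * (z * z) := by rw [hz, mul_one]
      _ = k * (k * z) * z := by group
      _ = k * (z * k) * z := by rw [h4.eq]
      _ = (k * z) * (k * z) := by group
      _ = 1 := hkk
  -- the main claim
  have main : ∀ k ∈ K, (k * z) * (k * z) = 1 → k = 1 := by
    intro k hk hkk
    set s := k * z with hs
    -- `(s b)^2 ∈ K`
    have hsb : (s * b) * (s * b) ∈ K := by
      have e : (s * b) * (s * b) = k * (z * (b * k * b) * z) := by
        rw [hs]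
        calc k * z * b * (k * z * b) = k * z * b * k * (z * b) := by group
          _ = k * z * b * k * (b * z) := by rw [hbz.eq]
          _ = k * (z * (b * k * b) * z) := by group
      rw [e]
      exact K.mul_mem hk (hzK _ (hbK k hk))
    set m := orderOf ((s * b) * (s * b)) with hm
    have hmodd : Odd m := by
      have h4 : m ∣ Nat.card K := Subgroup.orderOf_dvd_natCard K hsb
      exact Odd.of_dvd_nat hK h4
    obtain ⟨j, hj⟩ := hmodd
    set t := (s * b) ^ m with ht
    have htt : t * t = 1 := by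
      rw [ht, ← pow_add, ← two_mul, pow_mul, sq, hm]; exact pow_orderOf_eq_one _
    have hti : t⁻¹ = t := inv_eq_of_mul_eq_one_right htt
    have hsi : s⁻¹ = s := inv_eq_of_mul_eq_one_right hkk
    have hcomm : ∀ y : G, y * y = 1 → y * (s * b) * y = (s * b)⁻¹ → Commute y t := by
      intro y hy hyy
      have hyi : y⁻¹ = y := inv_eq_of_mul_eq_one_right hy
      have h5 : y * t * y⁻¹ = t⁻¹ := by
        rw [ht, ← conj_pow, hyi, hyy, inv_pow]
      rw [hti] at h5
      change y * t = t * y
      calc y * t = y * t * y⁻¹ * y := by group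
        _ = t * y := by rw [h5]
    have hts : Commute s t := hcomm s hkk (inv_aux1 hkk hb)
    have htb : Commute b t := hcomm b hb (inv_aux2 hkk hb)
    -- `t b ∈ K z`
    have htm : t = ((s * b) * (s * b)) ^ j * (s * b) := by
      rw [ht, hj, pow_succ, pow_mul, sq]
    have htb' : t * b = (((s * b) * (s * b)) ^ j * k) * z := by
      rw [htm, hs]
      calc (k * z * b * (k * z * b)) ^ j * (k * z * b) * b
          = (k * z * b * (k * z * b)) ^ j * k * z * (b * b) := by group
        _ = _ := by rw [hb, mul_one]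
    have hk' : ((s * b) * (s * b)) ^ j * k ∈ K := K.mul_mem (K.pow_mem hsb j) hk
    have htb2 : (t * b) * (t * b) = 1 := by
      calc (t * b) * (t * b) = t * (b * t) * b := by group
        _ = t * (t * b) * b := by rw [htb.eq]
        _ = (t * t) * (b * b) := by group
        _ = 1 := by rw [htt, hb, one_mul]
    have h6 : ((s * b) * (s * b)) ^ j * k = 1 := by
      apply uniq b hb h1 hbz _ hk'
      · rw [← htb']; exact htb2
      · rw [← htb']
        exact htb.symm.mul_left (Commute.refl b)
    have h7 : t * b = z := by rw [htb', h6, one_mul]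
    have h8 : t = z * b := by
      calc t = t * b * b := by rw [mul_assoc, hb, mul_one]
        _ = z * b := by rw [h7]
    -- now `s` commutes with `b z`
    apply uniq (b * z) hbzz h2 _ k hk hkk
    · rw [← hs]
      have : t = b * z := by rw [h8, hbz.eq]
      rw [← this]; exact hts
    · exact hbz.mul_left (Commute.refl z)
  intro x hx
  have h3 := main (x⁻¹ * (z * x * z)) (K.mul_mem (K.inv_mem hx) (hzK x hx)) (by
    calc x⁻¹ * (z * x * z) * z * (x⁻¹ * (z * x * z) * z)
        = x⁻¹ * z * x * (z * z) * x⁻¹ * z * x * (z * z) := by group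
      _ = x⁻¹ * z * (x * x⁻¹) * z * x := by rw [hz]; group
      _ = x⁻¹ * (z * z) * x := by group
      _ = 1 := by rw [hz]; group)
  have h4 : x = z * x * z := by
    rw [inv_mul_eq_one] at h3; exact h3
  change x * z = z * x
  calc x * z = z * x * z * z := by rw [← h4]
    _ = z * x := by rw [mul_assoc, hz, mul_one]

end Cfsg.Agent.Lib.LargeEx
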